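import Mathlib

/-!
# Siegel isometries acting on self-adjoint and skew operators of an orthogonal space

`W` with a non-degenerate symmetric bilinear form `B`, characteristic not two. `Eg B s a` is the
Siegel isometry `w ↦ w + B(w,s) a - B(w,a) s - ½ B(a,a) B(w,s) s`.
A space of operators stable under conjugation by Siegel isometries, containing the identity and a
self-adjoint non-scalar operator, contains the rank one operators `w ↦ B(w,s) s`, `s` singular.
-/

set_option autoImplicit false
set_option linter.unusedSimpArgs false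

namespace Cfsg.Agent.H875.Ten

variable {F : Type*} [Field F] {W : Type*} [AddCommGroup W] [Module F W]

/-- The rank one operator `w ↦ B(w,s) t`. -/
def rk (B : LinearMap.BilinForm F W) (s t : W) : W →ₗ[F] W :=
  LinearMap.smulRight (B.flip s) t

theorem rk_apply (B : LinearMap.BilinForm F W) (s t w : W) : rk B s t w = B w s • t := rfl

/-- The Siegel isometry. -/
def Eg (B : LinearMap.BilinForm F W) (s a : W) : W →ₗ[F] W :=
  LinearMap.id + rk B s a - rk B a s - (B a a / 2) • rk B s s

theorem Eg_apply (B : LinearMap.BilinForm F W) (s a w : W) :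
    Eg B s a w = w + B w s • a - B w a • s - (B a a / 2) • B w s • s := rfl

/-- A non-degenerate symmetric form. -/
structure SymB (B : LinearMap.BilinForm F W) : Prop where
  symm : ∀ x y, B x y = B y x
  nd : ∀ x, (∀ y, B x y = 0) → x = 0

variable {B : LinearMap.BilinForm F W}

theorem Eg_inv (h2 : (2 : F) ≠ 0) (hB : SymB B) {s a : W} (hs : B s s = 0) (ha : B a s = 0)
    (w : W) : Eg B s a (Eg B s (-a) w) = w := by
  have ha' : B s a = 0 := by rw [hB.symm]; exact ha
  simp only [Eg_apply, map_add, map_sub, map_neg, map_smul, LinearMap.add_apply,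
    LinearMap.sub_apply, LinearMap.neg_apply, LinearMap.smul_apply, smul_eq_mul, hs, ha, ha',
    mul_zero, neg_zero, add_zero, sub_zero, neg_neg, zero_smul, smul_zero, neg_mul, mul_neg]
  rw [← sub_eq_zero]
  match_scalars <;> field_simp <;> ring

theorem Eg_isom (h2 : (2 : F) ≠ 0) (hB : SymB B) {s a : W} (hs : B s s = 0) (ha : B a s = 0)
    (w w' : W) : B (Eg B s a w) (Eg B s a w') = B w w' := by
  have ha' : B s a = 0 := by rw [hB.symm]; exact ha
  simp only [Eg_apply, map_add, map_sub, map_smul, LinearMap.add_apply,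
    LinearMap.sub_apply, LinearMap.smul_apply, smul_eq_mul, hs, ha, ha', hB.symm s w',
    hB.symm a w']
  field_simp
  ring

theorem exists_partner (hB : SymB B) {s : W} (hs : s ≠ 0) : ∃ p, B p s = 1 := by
  obtain ⟨y, hy⟩ : ∃ y, B s y ≠ 0 := by
    by_contra hcon
    push Not at hcon
    exact hs (hB.nd s hcon)
  exact ⟨(B s y)⁻¹ • y, by rw [map_smul, LinearMap.smul_apply, smul_eq_mul, hB.symm y s,
    inv_mul_cancel₀ hy]⟩

/-- The double orthogonal of a line. -/
theorem mem_line_of_orth (hB : SymB B) {s z : W} (hs : s ≠ 0)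
    (h : ∀ a, B a s = 0 → B a z = 0) : ∃ c : F, z = c • s := by
  obtain ⟨p, hp⟩ := exists_partner hB hs
  refine ⟨B p z, ?_⟩
  have key : ∀ w, B w (z - B p z • s) = 0 := by
    intro w
    have h1 := h (w - B w s • p) (by
      rw [map_sub, map_smul, LinearMap.sub_apply, LinearMap.smul_apply, smul_eq_mul, hp, mul_one,
        sub_self])
    rw [map_sub, map_smul, LinearMap.sub_apply, LinearMap.smul_apply, smul_eq_mul] at h1
    rw [map_sub, map_smul, smul_eq_mul]
    linear_combination h1
  have h2 : z - B p z • s = 0 := hB.nd _ (fun w => by rw [hB.symm]; exact key w)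
  exact sub_eq_zero.1 h2

/-- A space of operators containing the scalars, stable under Siegel isometries. -/
structure OpSet (B : LinearMap.BilinForm F W) (P : (W →ₗ[F] W) → Prop) : Prop where
  add : ∀ {S T}, P S → P T → P (S + T)
  smul : ∀ (c : F) {S}, P S → P (c • S)
  one : P LinearMap.id
  conj : ∀ {s a : W}, B s s = 0 → B a s = 0 → ∀ {S}, P S → P (Eg B s a ∘ₗ S ∘ₗ Eg B s (-a))

/-- Self-adjoint operators. -/
def SA (B : LinearMap.BilinForm F W) (S : W →ₗ[F] W) : Prop := ∀ x y, B (S x) y = B x (S y)

/-- The difference `E S E⁻¹ - S`. -/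
def dd (B : LinearMap.BilinForm F W) (s a : W) (S : W →ₗ[F] W) : W →ₗ[F] W :=
  Eg B s a ∘ₗ S ∘ₗ Eg B s (-a) - S

theorem dd_apply (B : LinearMap.BilinForm F W) (s a : W) (S : W →ₗ[F] W) (w : W) :
    dd B s a S w = Eg B s a (S (Eg B s (-a) w)) - S w := rfl

variable {P : (W →ₗ[F] W) → Prop}

theorem OpSet.sub (hP : OpSet B P) {S T : W →ₗ[F] W} (hS : P S) (hT : P T) : P (S - T) := by
  have := hP.add hS (hP.smul (-1) hT)
  rwa [neg_one_smul, ← sub_eq_add_neg] at this

theorem OpSet.dd (hP : OpSet B P) {s a : W} (hs : B s s = 0) (ha : B a s = 0) {S : W →ₗ[F] W}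
    (hS : P S) : P (dd B s a S) := hP.sub (hP.conj hs ha hS) hS

theorem SA.dd (h2 : (2 : F) ≠ 0) (hB : SymB B) {s a : W} (hs : B s s = 0) (ha : B a s = 0)
    {S : W →ₗ[F] W} (hS : SA B S) : SA B (dd B s a S) := by
  intro x y
  have ha2 : B (-a) s = 0 := by rw [map_neg, LinearMap.neg_apply, ha, neg_zero]
  have h1 : ∀ x y, B (Eg B s a x) y = B x (Eg B s (-a) y) := by
    intro x y
    have e := Eg_inv h2 hB hs ha y
    conv_lhs => rw [← e]
    rw [Eg_isom h2 hB hs ha]
  have h3 : ∀ x y, B (Eg B s (-a) x) y = B x (Eg B s a y) := by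
    intro x y
    have e := Eg_inv h2 hB hs ha2 y
    rw [neg_neg] at e
    conv_lhs => rw [← e]
    rw [Eg_isom h2 hB hs ha2]
  rw [dd_apply, dd_apply, map_sub, LinearMap.sub_apply, map_sub, h1, hS, h3, hS x y]

/-- The difference when `s` is an eigenvector. -/
theorem dd_of_eigen (h2 : (2 : F) ≠ 0) (hB : SymB B) {s a : W} (hs : B s s = 0)
    (ha : B a s = 0) {S : W →ₗ[F] W} (hS : SA B S) {μ : F} (hSs : S s = μ • s) :
    dd B s a S = (B (S a - μ • a) a) • rk B s s -
      (rk B s (S a - μ • a) + rk B (S a - μ • a) s) := by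
  have ha' : B s a = 0 := by rw [hB.symm]; exact ha
  apply LinearMap.ext
  intro w
  have e1 : B (S w) s = μ * B w s := by
    rw [hS, hSs, map_smul, smul_eq_mul]
  have e2 : B (S a) s = 0 := by
    rw [hS, hSs, map_smul, smul_eq_mul, ha, mul_zero]
  have e3 : B (S w) a = B w (S a) := hS w a
  have e4 : B w (S a - μ • a) = B w (S a) - μ * B w a := by
    rw [map_sub, map_smul, smul_eq_mul]
  simp only [dd_apply, Eg_apply, map_add, map_sub, map_neg, map_smul, LinearMap.add_apply,
    LinearMap.sub_apply, LinearMap.neg_apply, LinearMap.smul_apply, smul_eq_mul, hs, ha, ha',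
    hSs, rk_apply, e1, e2, e3, mul_zero, neg_zero, add_zero, sub_zero, neg_neg,
    zero_smul, smul_zero, neg_mul, mul_neg]
  match_scalars <;> field_simp <;> ring

/-- An operator of the space having `s` as an eigenvector is scalar, if `w ↦ B(w,s) s` is not in
the space. -/
theorem scalar_of_eigen (h2 : (2 : F) ≠ 0) (hB : SymB B) (hP : OpSet B P) {s : W} (hs0 : s ≠ 0)
    (hs : B s s = 0) (hns : ¬ P (rk B s s)) {S : W →ₗ[F] W} (hS : SA B S) (hSP : P S) {μ : F}
    (hSs : S s = μ • s) : S = μ • LinearMap.id := by
  have hz : ∀ c : F, P (c • rk B s s) → c = 0 := by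
    intro c hc
    by_contra hc0
    apply hns
    have := hP.smul c⁻¹ hc
    rwa [smul_smul, inv_mul_cancel₀ hc0, one_smul] at this
  -- `S a - μ a` is a multiple of `s`
  have h3 : ∀ a, B a s = 0 → S a = μ • a := by
    intro a ha
    set z := S a - μ • a with hzdef
    have hzs : B z s = 0 := by
      rw [hzdef, map_sub, LinearMap.sub_apply, hS, hSs, map_smul, map_smul, LinearMap.smul_apply,
        sub_self]
    have hsz : B s z = 0 := by rw [hB.symm]; exact hzs
    set T := dd B s a S with hT
    have hTP : P T := hP.dd hs ha hSP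
    have hTe := dd_of_eigen h2 hB hs ha hS hSs
    rw [← hzdef] at hTe
    have hTs : T s = (0 : F) • s := by
      rw [hT, hTe]
      simp [rk_apply, hs, hsz]
    have hTSA : SA B T := SA.dd h2 hB hs ha hS
    have h4 : ∀ a', B a' s = 0 → B a' z = 0 := by
      intro a' ha'
      have h5 := hP.dd hs ha' hTP
      rw [dd_of_eigen h2 hB hs ha' hTSA hTs] at h5
      have h6 : T a' - (0 : F) • a' = (-(B a' z)) • s := by
        rw [hT, hTe]
        simp only [LinearMap.sub_apply, LinearMap.smul_apply, LinearMap.add_apply, rk_apply, ha',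
          zero_smul, smul_zero]
        module
      have h7 : (B (T a' - (0 : F) • a') a') • rk B s s -
          (rk B s (T a' - (0 : F) • a') + rk B (T a' - (0 : F) • a') s) =
          (2 * B a' z) • rk B s s := by
        rw [h6]
        apply LinearMap.ext
        intro w
        simp only [LinearMap.sub_apply, LinearMap.smul_apply, LinearMap.add_apply, rk_apply,
          map_smul, LinearMap.smul_apply, smul_eq_mul, hB.symm s a', ha', mul_zero]
        module
      rw [h7] at h5
      have h8 := hz _ h5
      exact (mul_eq_zero.1 h8).resolve_left h2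
    obtain ⟨ν, hν⟩ := mem_line_of_orth hB hs0 h4
    have h9 : T = (-(2 * ν)) • rk B s s := by
      rw [hT, hTe, hν]
      apply LinearMap.ext
      intro w
      simp only [LinearMap.sub_apply, LinearMap.smul_apply, LinearMap.add_apply, rk_apply,
        map_smul, smul_eq_mul, hB.symm s a, ha, mul_zero]
      module
    rw [h9] at hTP
    have h10 := hz _ hTP
    have h11 : ν = 0 := by
      have : 2 * ν = 0 := neg_eq_zero.1 h10
      exact (mul_eq_zero.1 this).resolve_left h2
    rw [h11, zero_smul] at hν
    exact sub_eq_zero.1 hν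
  obtain ⟨p, hp⟩ := exists_partner hB hs0
  obtain ⟨c, hc⟩ := mem_line_of_orth hB hs0 (z := S p - μ • p) (by
    intro a ha
    rw [map_sub, map_smul, ← hS, h3 a ha, map_smul, LinearMap.smul_apply, sub_self])
  have h4 : S - μ • LinearMap.id = c • rk B s s := by
    apply LinearMap.ext
    intro w
    have e : w = (w - B w s • p) + B w s • p := by abel
    have h5 : S (w - B w s • p) = μ • (w - B w s • p) := by
      apply h3
      rw [map_sub, map_smul, LinearMap.sub_apply, LinearMap.smul_apply, smul_eq_mul, hp, mul_one,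
        sub_self]
    have h6 : S p = μ • p + c • s := by rw [← hc]; abel
    have h7 : S w = μ • (w - B w s • p) + B w s • (μ • p + c • s) := by
      conv_lhs => rw [e]
      rw [map_add, h5, map_smul, h6]
    rw [LinearMap.sub_apply, h7, LinearMap.smul_apply, LinearMap.smul_apply, rk_apply,
      LinearMap.id_apply]
    module
  have h5 : P (c • rk B s s) := by
    rw [← h4]
    exact hP.sub hSP (hP.smul μ hP.one)
  rw [hz c h5, zero_smul] at h4
  exact sub_eq_zero.1 h4

/-- The difference on `s`. -/
theorem dd_self (hB : SymB B) {s a : W} (hs : B s s = 0) (ha : B a s = 0) (S : W →ₗ[F] W) :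
    dd B s a S s = B (S s) s • a - B (S s) a • s - (B a a / 2) • B (S s) s • s := by
  have ha' : B s a = 0 := by rw [hB.symm]; exact ha
  rw [dd_apply]
  have e : Eg B s (-a) s = s := by
    simp only [Eg_apply, map_neg, hs, ha', neg_zero, zero_smul, smul_zero, add_zero, sub_zero]
  rw [e, Eg_apply]
  abel

/-- The difference on `s^⊥`, when `S s ∈ s^⊥`. -/
theorem dd_orth (hB : SymB B) {s a : W} (hs : B s s = 0) (ha : B a s = 0)
    {S : W →ₗ[F] W} (hS : SA B S) (hy : B (S s) s = 0) {w : W} (hw : B w s = 0) :
    dd B s a S w = B w a • S s + B w (S s) • a -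
      (B (S w) a + B w a * B (S s) a + B a a / 2 * B w (S s)) • s := by
  have ha' : B s a = 0 := by rw [hB.symm]; exact ha
  have e3 : B (S w) s = B w (S s) := hS w s
  simp only [dd_apply, Eg_apply, map_add, map_sub, map_neg, map_smul, LinearMap.add_apply,
    LinearMap.sub_apply, LinearMap.neg_apply, LinearMap.smul_apply, smul_eq_mul, hs, ha, ha',
    hy, hw, e3, mul_zero, neg_zero, add_zero, sub_zero, neg_neg,
    zero_smul, smul_zero, neg_mul, mul_neg]
  module

/-- Every operator of the space is scalar if `w ↦ B(w,s) s` is not in it. -/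
theorem eigen_of_not (h2 : (2 : F) ≠ 0) (hB : SymB B) (hP : OpSet B P)
    [FiniteDimensional F W] (hdim : 3 ≤ Module.finrank F W)
    (hq : Module.finrank F W = 3 → ∃ t : F, t ≠ 0 ∧ t ^ 2 ≠ 1) {s : W} (hs0 : s ≠ 0)
    (hs : B s s = 0) (hns : ¬ P (rk B s s)) {S : W →ₗ[F] W} (hS : SA B S) (hSP : P S)
    (hy : B (S s) s = 0) : ∃ μ : F, S s = μ • s := by
  by_contra hcon
  push Not at hcon
  set y := S s with hydef
  -- `dd B s a S` is scalar
  have h1 : ∀ a, B a s = 0 → dd B s a S = (-(B y a)) • LinearMap.id := by
    intro a ha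
    apply scalar_of_eigen h2 hB hP hs0 hs hns (SA.dd h2 hB hs ha hS) (hP.dd hs ha hSP)
    rw [dd_self hB hs ha, ← hydef, hy, zero_smul, zero_smul, smul_zero, zero_sub, sub_zero,
      neg_smul]
  have h3 : ∀ a w, B a s = 0 → B w s = 0 → ∃ c : F, B w a • y + B w y • a + B y a • w = c • s := by
    intro a w ha hw
    have e1 := congrArg (fun L : W →ₗ[F] W => L w) (h1 a ha)
    simp only [LinearMap.smul_apply, LinearMap.id_apply] at e1
    rw [dd_orth hB hs ha hS hy hw, ← hydef] at e1
    refine ⟨B (S w) a + B w a * B y a + B a a / 2 * B w y, ?_⟩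
    have : B w a • y + B w y • a + B y a • w =
        (B w a • y + B w y • a - (B (S w) a + B w a * B y a + B a a / 2 * B w y) • s) +
          B y a • w + (B (S w) a + B w a * B y a + B a a / 2 * B w y) • s := by abel
    rw [this, e1]
    module
  -- a vector of `s^⊥ ∩ y^⊥` outside the line of `s`
  by_cases hex : ∃ a, B a s = 0 ∧ B a y = 0 ∧ ∀ c : F, a ≠ c • s
  · obtain ⟨a, ha, hay, han⟩ := hex
    obtain ⟨w, hw, hwa⟩ : ∃ w, B w s = 0 ∧ B w a ≠ 0 := by
      by_contra hc
      push Not at hc
      obtain ⟨c, hc'⟩ := mem_line_of_orth hB hs0 hc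
      exact han c hc'
    have hya : B y a = 0 := by rw [hB.symm]; exact hay
    obtain ⟨c, hc⟩ := h3 a w ha hw
    rw [hya, zero_smul, add_zero] at hc
    -- pair with `a`
    have e1 := congrArg (fun x => B x a) hc
    simp only [map_add, map_smul, LinearMap.add_apply, LinearMap.smul_apply, smul_eq_mul] at e1
    rw [hya, hB.symm s a, ha, mul_zero, mul_zero, zero_add] at e1
    -- pair with `w`
    have e2 := congrArg (fun x => B x w) hc
    simp only [map_add, map_smul, LinearMap.add_apply, LinearMap.smul_apply, smul_eq_mul] at e2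
    rw [hB.symm y w, hB.symm a w, hB.symm s w, hw] at e2
    have e3 : B w y = 0 := by
      have : 2 * B w a * B w y = 0 := by linear_combination e2
      rcases mul_eq_zero.1 this with h | h
      · rcases mul_eq_zero.1 h with h | h
        · exact absurd h h2
        · exact absurd h hwa
      · exact h
    rw [e3, zero_smul, add_zero] at hc
    apply hcon ((B w a)⁻¹ * c)
    rw [mul_smul, ← hc, smul_smul, inv_mul_cancel₀ hwa, one_smul]
  · -- dimension three
    push Not at hex
    have hd3 : Module.finrank F W = 3 := by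
      by_contra hne
      let L : W →ₗ[F] (Fin 2 → F) := LinearMap.pi ![B.flip s, B.flip y]
      have h4 : Module.finrank F (LinearMap.range L) ≤ 2 := by
        calc _ ≤ Module.finrank F (Fin 2 → F) := Submodule.finrank_le _
          _ = 2 := by simp
      have h5 := LinearMap.finrank_range_add_finrank_ker L
      have h6 : 2 ≤ Module.finrank F (LinearMap.ker L) := by omega
      have h7 : LinearMap.ker L ≤ Submodule.span F {s} := by
        intro a ha
        rw [LinearMap.mem_ker] at ha
        have ha1 : B a s = 0 := congrFun ha 0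
        have ha2 : B a y = 0 := congrFun ha 1
        obtain ⟨c, hc⟩ := hex a ha1 ha2
        rw [hc]
        exact Submodule.smul_mem _ _ (Submodule.mem_span_singleton_self s)
      have h8 := Submodule.finrank_mono h7
      have h9 := finrank_span_le_card (R := F) ({s} : Set W)
      simp only [Set.toFinset_singleton, Finset.card_singleton] at h9
      omega
    obtain ⟨t, ht0, ht⟩ := hq hd3
    -- a hyperbolic partner
    obtain ⟨p, hps, hpp⟩ : ∃ p, B p s = 1 ∧ B p p = 0 := by
      obtain ⟨p₀, hp₀⟩ := exists_partner hB hs0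
      have hsp₀ : B s p₀ = 1 := by rw [hB.symm]; exact hp₀
      refine ⟨p₀ - (B p₀ p₀ / 2) • s, ?_, ?_⟩
      · rw [map_sub, map_smul, LinearMap.sub_apply, LinearMap.smul_apply, hp₀, hs, smul_zero,
          sub_zero]
      · simp only [map_sub, map_smul, LinearMap.sub_apply, LinearMap.smul_apply, smul_eq_mul, hp₀,
          hsp₀, hs]
        field_simp
        ring
    have hsp : B s p = 1 := by rw [hB.symm]; exact hps
    have hys : B y s = 0 := hy
    -- the component of `y`
    obtain ⟨e, hedef⟩ : ∃ e, y = e + B y p • s := ⟨y - B y p • s, by abel⟩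
    have hes : B e s = 0 := by
      have h4 : B (e + B y p • s) s = 0 := by rw [← hedef]; exact hys
      rw [map_add, map_smul, LinearMap.add_apply, LinearMap.smul_apply, hs, smul_zero,
        add_zero] at h4
      exact h4
    have hep : B e p = 0 := by
      have h4 : B (e + B y p • s) p = B y p := by rw [← hedef]
      rw [map_add, map_smul, LinearMap.add_apply, LinearMap.smul_apply, hsp, smul_eq_mul,
        mul_one] at h4
      linear_combination h4
    have he0 : e ≠ 0 := fun h => hcon (B y p) (by rw [h, zero_add] at hedef; exact hedef)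
    have hey : B e y = B e e := by
      conv_lhs => rw [hedef]
      rw [map_add, map_smul, hes, smul_zero, add_zero]
    have hee : B e e ≠ 0 := by
      intro h
      obtain ⟨c, hc⟩ := hex e hes (by rw [hey, h])
      apply he0
      have h4 : B e p = c := by
        rw [hc, map_smul, LinearMap.smul_apply, hsp, smul_eq_mul, mul_one]
      rw [hep] at h4
      rw [hc, ← h4, zero_smul]
    -- the value of `dd` at `p`, paired with `p`
    have key : ∀ α : F, -(2 * α * B (S p) e) - α ^ 2 * B e e * B p y + α ^ 2 * B (S e) e +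
        α ^ 3 * (B e e * B e y) = 0 := by
      intro α
      have ha : B (α • e) s = 0 := by rw [map_smul, LinearMap.smul_apply, hes, smul_zero]
      have e1 := congrArg (fun L : W →ₗ[F] W => B (L p) p) (h1 _ ha)
      simp only [LinearMap.smul_apply, LinearMap.id_apply, map_smul, hpp, smul_zero] at e1
      have hpe : B p e = 0 := by rw [hB.symm]; exact hep
      have hse : B s e = 0 := by rw [hB.symm]; exact hes
      have e2 : Eg B s (-(α • e)) p = p - α • e - (α ^ 2 * B e e / 2) • s := by
        simp only [Eg_apply, map_neg, map_smul, LinearMap.neg_apply, LinearMap.smul_apply,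
          smul_eq_mul, hps, hpe, mul_zero, neg_zero, zero_smul, sub_zero, one_smul]
        match_scalars <;> ring
      have e3 : B (Eg B s (α • e) (S (Eg B s (-(α • e)) p))) p =
          B (S (Eg B s (-(α • e)) p)) (Eg B s (-(α • e)) p) := by
        have hαs : B (α • e) s = 0 := ha
        conv_lhs => rw [← Eg_inv h2 hB hs hαs p]
        rw [Eg_isom h2 hB hs hαs]
        rw [Eg_inv h2 hB hs hαs p]
      rw [dd_apply, map_sub, LinearMap.sub_apply, e3, e2] at e1
      have f1 : B (S e) p = B (S p) e := by rw [hS, hB.symm]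
      have f2 : B (S s) p = B p y := hB.symm _ _
      have f3 : B (S p) s = B p y := hS p s
      have f4 : B (S s) e = B e y := hB.symm _ _
      have f5 : B (S e) s = B e y := hS e s
      simp only [map_sub, map_smul, LinearMap.sub_apply, LinearMap.smul_apply, smul_eq_mul, f1,
        f2, f3, f4, f5, ← hydef, hys, hB.symm y p, hB.symm y e] at e1
      have h22 : (2 : F)⁻¹ * 2 = 1 := inv_mul_cancel₀ h2
      linear_combination e1 + (α ^ 2 * B e e * B p y - α ^ 3 * B e e * B e y) * h22
    have k1 := key 1
    have k2 := key (-1)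
    have k3 := key t
    have c2 : -(B e e * B p y) + B (S e) e = 0 := by
      have : 2 * (-(B e e * B p y) + B (S e) e) = 0 := by linear_combination k1 + k2
      exact (mul_eq_zero.1 this).resolve_left h2
    have c1 : -(2 * B (S p) e) + B e e * B e y = 0 := by linear_combination k1 - c2
    have c3 : t * (t ^ 2 - 1) * (B e e * B e y) = 0 := by
      linear_combination k3 - t ^ 2 * c2 - t * c1
    rcases mul_eq_zero.1 c3 with h | h
    · rcases mul_eq_zero.1 h with h | h
      · exact ht0 h
      · exact ht (sub_eq_zero.1 h)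
    · rw [hey] at h
      rcases mul_eq_zero.1 h with h | h
      · exact hee h
      · exact hee h

/-- Every operator of the space is scalar if `w ↦ B(w,s) s` is not in it. -/
theorem scalar_of_not (h2 : (2 : F) ≠ 0) (hB : SymB B) (hP : OpSet B P)
    [FiniteDimensional F W] (hdim : 3 ≤ Module.finrank F W)
    (hq : Module.finrank F W = 3 → ∃ t : F, t ≠ 0 ∧ t ^ 2 ≠ 1) {s : W} (hs0 : s ≠ 0)
    (hs : B s s = 0) (hns : ¬ P (rk B s s)) {S : W →ₗ[F] W} (hS : SA B S) (hSP : P S) :
    ∃ μ : F, S = μ • LinearMap.id := by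
  by_cases hy : B (S s) s = 0
  · obtain ⟨μ, hμ⟩ := eigen_of_not h2 hB hP hdim hq hs0 hs hns hS hSP hy
    exact ⟨μ, scalar_of_eigen h2 hB hP hs0 hs hns hS hSP hμ⟩
  · exfalso
    obtain ⟨a, ha, han⟩ : ∃ a, B a s = 0 ∧ ∀ c : F, a ≠ c • s := by
      by_contra hc
      push Not at hc
      have h5 := LinearMap.finrank_range_add_finrank_ker (B.flip s)
      have h4 : Module.finrank F (LinearMap.range (B.flip s)) ≤ 1 := by
        calc _ ≤ Module.finrank F F := Submodule.finrank_le _
          _ = 1 := Module.finrank_self F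
      have h7 : LinearMap.ker (B.flip s) ≤ Submodule.span F {s} := by
        intro a ha
        rw [LinearMap.mem_ker] at ha
        obtain ⟨c, hc⟩ := hc a ha
        rw [hc]
        exact Submodule.smul_mem _ _ (Submodule.mem_span_singleton_self s)
      have h8 := Submodule.finrank_mono h7
      have h9 := finrank_span_le_card (R := F) ({s} : Set W)
      simp only [Set.toFinset_singleton, Finset.card_singleton] at h9
      omega
    have ha' : B s a = 0 := by rw [hB.symm]; exact ha
    have e1 := dd_self hB hs ha S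
    obtain ⟨μ, hμ⟩ := eigen_of_not h2 hB hP hdim hq hs0 hs hns (SA.dd h2 hB hs ha hS)
      (hP.dd hs ha hSP) (by
        rw [e1]
        simp only [map_sub, map_smul, LinearMap.sub_apply, LinearMap.smul_apply, ha, hs, smul_zero,
          sub_zero])
    rw [e1] at hμ
    apply han ((B (S s) s)⁻¹ * (μ + B (S s) a + B a a / 2 * B (S s) s))
    rw [mul_smul]
    have : (μ + B (S s) a + B a a / 2 * B (S s) s) • s = B (S s) s • a := by
      have e2 : B (S s) s • a = (B (S s) s • a - B (S s) a • s - (B a a / 2) • B (S s) s • s) +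
        (B (S s) a + B a a / 2 * B (S s) s) • s := by module
      rw [e2, hμ]
      module
    rw [this, smul_smul, inv_mul_cancel₀ hy, one_smul]

end Cfsg.Agent.H875.Ten
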